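/-
Abstract root subgroups: chains A, B, C with [A,B], [B,C] members and [A,C] = 1 (helper733, S5030).
-/
import Cfsg.Agent.H733.RootBasics

set_option autoImplicit false
open Cfsg Cfsg.Agent.H731

namespace Cfsg.Agent.H733

variable {G : Type*} [Group G]

/-! ### Commutators of joins -/

theorem commutator_sup_le {H A B K : Subgroup G} (h1 : ⁅H, A⁆ ≤ K) (h2 : ⁅H, B⁆ ≤ K)
    (hA : A ≤ Subgroup.normalizer (K : Set G)) (hB : B ≤ Subgroup.normalizer (K : Set G)) : ⁅H, A ⊔ B⁆ ≤ K := by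
  let M : Subgroup G :=
    { carrier := {r | r ∈ Subgroup.normalizer (K : Set G) ∧ ∀ x ∈ H, x * r * x⁻¹ * r⁻¹ ∈ K}
      one_mem' := ⟨Subgroup.one_mem _, fun x _ => by simp⟩
      mul_mem' := by
        rintro r s ⟨hr, hr'⟩ ⟨hs, hs'⟩
        refine ⟨Subgroup.mul_mem _ hr hs, fun x hx => ?_⟩
        have h3 : x * (r * s) * x⁻¹ * (r * s)⁻¹ = (x * r * x⁻¹ * r⁻¹) * (r * (x * s * x⁻¹ * s⁻¹) * r⁻¹) := by
          simp [mul_assoc]
        rw [h3]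
        exact K.mul_mem (hr' x hx) ((Subgroup.mem_normalizer_iff.1 hr _).1 (hs' x hx))
      inv_mem' := by
        rintro r ⟨hr, hr'⟩
        refine ⟨Subgroup.inv_mem _ hr, fun x hx => ?_⟩
        have h3 : x * r⁻¹ * x⁻¹ * r⁻¹⁻¹ = r⁻¹ * (x * r * x⁻¹ * r⁻¹)⁻¹ * r⁻¹⁻¹ := by
          simp [mul_assoc]
        rw [h3]
        exact (Subgroup.mem_normalizer_iff.1 (Subgroup.inv_mem _ hr) _).1 (K.inv_mem (hr' x hx)) }
  have hAM : A ≤ M := fun a ha => ⟨hA ha, fun x hx => h1 (comm_mem hx ha)⟩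
  have hBM : B ≤ M := fun b hb => ⟨hB hb, fun x hx => h2 (comm_mem hx hb)⟩
  have hM : A ⊔ B ≤ M := sup_le hAM hBM
  rw [Subgroup.commutator_le]
  intro x hx r hr
  rw [commutatorElement_def]
  exact (hM hr).2 x hx

theorem commutator_sup_le' {H A B K : Subgroup G} (h1 : ⁅A, H⁆ ≤ K) (h2 : ⁅B, H⁆ ≤ K)
    (hA : A ≤ Subgroup.normalizer (K : Set G)) (hB : B ≤ Subgroup.normalizer (K : Set G)) : ⁅A ⊔ B, H⁆ ≤ K := by
  rw [Subgroup.commutator_comm] at h1 h2 ⊢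
  exact commutator_sup_le h1 h2 hA hB

theorem le_normalizer_of_comm {A K : Subgroup G} (h : ∀ a ∈ A, ∀ k ∈ K, a * k = k * a) :
    A ≤ Subgroup.normalizer (K : Set G) :=
  le_normalizer_of_conjBy fun a ha => conjBy_of_commute fun k hk => h a ha k hk

theorem comm_sup {H A B : Subgroup G} (h1 : ⁅H, A⁆ = ⊥) (h2 : ⁅H, B⁆ = ⊥) : ⁅H, A ⊔ B⁆ = ⊥ := by
  have h : ∀ A : Subgroup G, A ≤ Subgroup.normalizer ((⊥ : Subgroup G) : Set G) := fun A =>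
    le_normalizer_of_conjBy fun a _ => conjBy_bot a
  exact le_bot_iff.1 (commutator_sup_le h1.le h2.le (h A) (h B))

theorem comm_sup' {H A B : Subgroup G} (h1 : ⁅A, H⁆ = ⊥) (h2 : ⁅B, H⁆ = ⊥) : ⁅A ⊔ B, H⁆ = ⊥ := by
  rw [Subgroup.commutator_comm] at h1 h2 ⊢
  exact comm_sup h1 h2

theorem normalizer_sup {A K L : Subgroup G} (h1 : A ≤ Subgroup.normalizer (K : Set G))
    (h2 : A ≤ Subgroup.normalizer (L : Set G)) : A ≤ Subgroup.normalizer ((K ⊔ L : Subgroup G) : Set G) :=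
  le_normalizer_of_conjBy fun a ha => by
    rw [conjBy_sup, mem_normalizer_iff_conjBy.1 (h1 ha), mem_normalizer_iff_conjBy.1 (h2 ha)]

theorem normalizer_commutator {A K L : Subgroup G} (h1 : A ≤ Subgroup.normalizer (K : Set G))
    (h2 : A ≤ Subgroup.normalizer (L : Set G)) : A ≤ Subgroup.normalizer ((⁅K, L⁆ : Subgroup G) : Set G) :=
  le_normalizer_of_conjBy fun a ha => by
    rw [conjBy_commutator, mem_normalizer_iff_conjBy.1 (h1 ha), mem_normalizer_iff_conjBy.1 (h2 ha)]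

/-- Nilpotency of a subgroup from a descending chain. -/
theorem isNilpotent_of_chain {R : Subgroup G} (K : ℕ → Subgroup G) (h0 : R ≤ K 0)
    (h : ∀ n, ⁅K n, R⁆ ≤ K (n + 1)) (m : ℕ) (hm : K m = ⊥) : Group.IsNilpotent ↥R := by
  rw [Subgroup.nilpotent_iff_finite_descending_central_series]
  refine ⟨m, fun n => (K n).subgroupOf R, ⟨?_, ?_⟩, ?_⟩
  · exact Subgroup.subgroupOf_eq_top.2 h0
  · intro x n hx g
    rw [Subgroup.mem_subgroupOf] at hx ⊢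
    exact h n (comm_mem hx g.2)
  · show (K m).subgroupOf R = ⊥
    rw [hm]
    exact Subgroup.bot_subgroupOf R

/-- If `X`, `Y` commute elementwise and both have class at most two, so has `X Y`. -/
theorem class_two_sup {X Y : Subgroup G} (hXY : ⁅X, Y⁆ = ⊥) (hX : ⁅⁅X, X⁆, X⁆ = ⊥) (hY : ⁅⁅Y, Y⁆, Y⁆ = ⊥) :
    ⁅⁅X ⊔ Y, X ⊔ Y⁆, X ⊔ Y⁆ = ⊥ := by
  have hYX : ⁅Y, X⁆ = ⊥ := by rw [Subgroup.commutator_comm]; exact hXY
  have c1 := commutator_eq_bot_iff_forall.1 hXY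
  have hXX : ⁅X, X⁆ ≤ X := Subgroup.commutator_le_self X
  have hYY : ⁅Y, Y⁆ ≤ Y := Subgroup.commutator_le_self Y
  have hXn : X ≤ Subgroup.normalizer ((⁅X, X⁆ ⊔ ⁅Y, Y⁆ : Subgroup G) : Set G) :=
    normalizer_sup (Subgroup.normalizer_commutator_ge_left X X)
      (le_normalizer_of_comm fun x hx y hy => c1 x hx y (hYY hy))
  have hYn : Y ≤ Subgroup.normalizer ((⁅X, X⁆ ⊔ ⁅Y, Y⁆ : Subgroup G) : Set G) :=
    normalizer_sup (le_normalizer_of_comm fun y hy x hx => (c1 x (hXX hx) y hy).symm)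
      (Subgroup.normalizer_commutator_ge_left Y Y)
  have h1 : ⁅X ⊔ Y, X ⊔ Y⁆ ≤ ⁅X, X⁆ ⊔ ⁅Y, Y⁆ := by
    refine commutator_sup_le (commutator_sup_le' le_sup_left (hYX.le.trans bot_le) hXn hYn)
      (commutator_sup_le' (hXY.le.trans bot_le) le_sup_right hXn hYn) hXn hYn
  refine le_bot_iff.1 ((Subgroup.commutator_mono h1 le_rfl).trans ?_)
  rw [le_bot_iff]
  refine comm_sup' (comm_sup hX ?_) (comm_sup ?_ hY)
  · exact le_bot_iff.1 ((Subgroup.commutator_mono hXX le_rfl).trans hXY.le)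
  · exact le_bot_iff.1 ((Subgroup.commutator_mono hYY le_rfl).trans hYX.le)

theorem rcc_class_two {S : Set (Subgroup G)} {A B : Subgroup G} (hS : IsRootSubgroupSet S) (hA : A ∈ S) (hB : B ∈ S)
    (h : RootCommutatorCase S A B) : ⁅⁅A ⊔ B, A ⊔ B⁆, A ⊔ B⁆ = ⊥ := by
  have hAA := member_commutator_self hS hA
  have hBB := member_commutator_self hS hB
  have hcA : ∀ a ∈ A, ∀ k ∈ ⁅A, B⁆, a * k = k * a := fun a ha k hk => (rcc_comm_left h hk ha).symm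
  have hcB : ∀ b ∈ B, ∀ k ∈ ⁅A, B⁆, b * k = k * b := fun a ha k hk => (rcc_comm_right h hk ha).symm
  have h1 : ⁅A ⊔ B, A ⊔ B⁆ ≤ ⁅A, B⁆ := by
    refine commutator_sup_le (commutator_sup_le' (hAA.le.trans bot_le) ?_ (le_normalizer_of_comm hcA)
      (le_normalizer_of_comm hcB)) (commutator_sup_le' le_rfl (hBB.le.trans bot_le) (le_normalizer_of_comm hcA)
      (le_normalizer_of_comm hcB)) (le_normalizer_of_comm hcA) (le_normalizer_of_comm hcB)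
    rw [Subgroup.commutator_comm]
  refine le_bot_iff.1 ((Subgroup.commutator_mono h1 le_rfl).trans ?_)
  rw [le_bot_iff, commutator_eq_bot_iff_forall]
  exact h.2.1

/-! ### The chain -/

section chain

variable {S : Set (Subgroup G)} {A B C : Subgroup G}

/-- `A ⊔ A^b = A ⊔ ⁅A, B⁆` in the commutator case. -/
theorem rcc_sup_conj (h : RootCommutatorCase S A B) {b : G} (hb : b ∈ B) (hb1 : b ≠ 1) :
    A ⊔ conjBy A b = A ⊔ ⁅A, B⁆ := by
  apply le_antisymm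
  · exact sup_le le_sup_left (conjBy_le_sup_commutator hb)
  · refine sup_le le_sup_left ?_
    rw [← h.2.2.2 b hb hb1, Subgroup.closure_le]
    rintro _ ⟨a, ha, rfl⟩
    have h1 : a * b * a⁻¹ * b⁻¹ = a * (b * a⁻¹ * b⁻¹) := by simp [mul_assoc]
    show a * b * a⁻¹ * b⁻¹ ∈ A ⊔ conjBy A b
    rw [h1]
    exact Subgroup.mul_mem_sup ha (conj_mem_conjBy (A.inv_mem ha) b)

theorem rcc_conjBy_sup (h : RootCommutatorCase S A B) {b : G} (hb : b ∈ B) :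
    conjBy (A ⊔ ⁅A, B⁆) b = A ⊔ ⁅A, B⁆ := by
  have hle : ∀ b ∈ B, conjBy (A ⊔ ⁅A, B⁆) b ≤ A ⊔ ⁅A, B⁆ := by
    intro b hb
    rw [conjBy_sup]
    refine sup_le (conjBy_le_sup_commutator hb) ?_
    have : conjBy ⁅A, B⁆ b = ⁅A, B⁆ := conjBy_of_commute fun c hc => (rcc_comm_right h hc hb).symm
    rw [this]
    exact le_sup_right
  apply le_antisymm (hle b hb)
  have h1 := hle b⁻¹ (B.inv_mem hb)
  rw [← conjBy_le_conjBy (g := b), conjBy_conjBy, mul_inv_cancel, conjBy_one] at h1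
  exact h1

variable (hS : IsRootSubgroupSet S)
include hS

theorem rcc_sup_commutator_comm (hA : A ∈ S) (h : RootCommutatorCase S A B) : ⁅A ⊔ ⁅A, B⁆, A ⊔ ⁅A, B⁆⁆ = ⊥ := by
  have h1 : ⁅A, ⁅A, B⁆⁆ = ⊥ := commutator_eq_bot_iff_forall.2 fun a ha c hc => (rcc_comm_left h hc ha).symm
  have h2 : ⁅⁅A, B⁆, A⁆ = ⊥ := by rw [Subgroup.commutator_comm]; exact h1
  have h3 : ⁅⁅A, B⁆, ⁅A, B⁆⁆ = ⊥ := commutator_eq_bot_iff_forall.2 fun a ha c hc => rcc_comm_self h ha hc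
  exact comm_sup (comm_sup' (member_commutator_self hS hA) h2) (comm_sup' h1 h3)

/-- A rank one pair `(A, C^b)` is impossible in a chain. -/
theorem chain_not_rankOne (hA : A ∈ S) (hC : C ∈ S) (hAB : RootCommutatorCase S A B)
    (hAC : ⁅A, C⁆ = ⊥) {b : G} (hb : b ∈ B) (hb1 : b ≠ 1) : ¬ IsRankOnePair A (conjBy C b) := by
  intro h
  obtain ⟨a, ha, ha1⟩ := member_exists_ne_one hS hA
  rw [commutator_eq_bot_iff_forall] at hAC
  have hU := commutator_eq_bot_iff_forall.1 (rcc_sup_commutator_comm hS hA hAB)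
  have hzA : b * a * b⁻¹ ∈ conjBy A b := conj_mem_conjBy ha b
  have hz : b * a * b⁻¹ ∈ Subgroup.centralizer ((A ⊔ conjBy C b : Subgroup G) : Set G) := by
    rw [mem_centralizer_sup]
    refine ⟨fun x hx => hU _ (conjBy_le_sup_commutator hb hzA) _ (Subgroup.mem_sup_left hx), ?_⟩
    rintro _ ⟨c, hc, rfl⟩
    show b * a * b⁻¹ * (b * c * b⁻¹) = b * c * b⁻¹ * (b * a * b⁻¹)
    have h1 := hAC a ha c hc
    have h2 : b * (a * c) * b⁻¹ = b * (c * a) * b⁻¹ := by rw [h1]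
    simpa [mul_assoc] using h2
  have hz1 : b * a * b⁻¹ ≠ 1 := by
    intro h1
    apply ha1
    have : a = b⁻¹ * (b * a * b⁻¹) * b := by simp [mul_assoc]
    rw [this, h1]; simp
  refine central_translate hS (hS.conj_mem C hC b) h hz hz1 (A.inv_mem ha) (inv_ne_one.2 ha1) hAB.1 ?_
  have h3 := comm_mem (A := B) (B := A) hb ha
  rwa [Subgroup.commutator_comm] at h3

omit hS in
/-- If `A` commutes with `C^b` then everything in sight commutes. -/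
theorem chain_comm (hBC : RootCommutatorCase S B C)
    (hAC : ⁅A, C⁆ = ⊥) {b : G} (hb : b ∈ B) (hb1 : b ≠ 1) (h : ⁅A, conjBy C b⁆ = ⊥) :
    ⁅conjBy A b, C⁆ = ⊥ := by
  have h1 : ⁅A, C ⊔ ⁅C, B⁆⁆ = ⊥ := by
    rw [← rcc_sup_conj (rootCommutatorCase_symm hBC) hb hb1]
    exact comm_sup hAC h
  have h2 : ⁅⁅B, C⁆, A⁆ = ⊥ := by
    rw [Subgroup.commutator_comm, Subgroup.commutator_comm B C]
    exact le_bot_iff.1 ((Subgroup.commutator_mono le_rfl le_sup_right).trans h1.le)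
  have h3 : ⁅⁅C, A⁆, B⁆ = ⊥ := by
    rw [Subgroup.commutator_comm C A, hAC]
    exact Subgroup.commutator_bot_left B
  have h4 : ⁅⁅A, B⁆, C⁆ = ⊥ := Subgroup.commutator_commutator_eq_bot_of_rotate h2 h3
  have h5 : ⁅A ⊔ ⁅A, B⁆, C⁆ = ⊥ := comm_sup' hAC h4
  exact le_bot_iff.1 ((Subgroup.commutator_mono (conjBy_le_sup_commutator hb) le_rfl).trans h5.le)

/-- The main lemma on chains. -/
theorem chain_main (hA : A ∈ S) (hB : B ∈ S) (hC : C ∈ S) (hAB : RootCommutatorCase S A B)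
    (hBC : RootCommutatorCase S B C) (hAC : ⁅A, C⁆ = ⊥) {b : G} (hb : b ∈ B) (hb1 : b ≠ 1) :
    ((IsMulCommutative ↥(A ⊔ conjBy C b) ∧ IsMulCommutative ↥(conjBy A b ⊔ C)) ∨
      ((¬ IsMulCommutative ↥(A ⊔ conjBy C b) ∧
          ⁅⁅A ⊔ conjBy C b, A ⊔ conjBy C b⁆, A ⊔ conjBy C b⁆ = ⊥) ∧
        (¬ IsMulCommutative ↥(conjBy A b ⊔ C) ∧
          ⁅⁅conjBy A b ⊔ C, conjBy A b ⊔ C⁆, conjBy A b ⊔ C⁆ = ⊥))) ∧
    ⁅A ⊔ conjBy C b, conjBy A b ⊔ C⁆ = ⊥ ∧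
    (∀ r ∈ A ⊔ B ⊔ C, conjBy ((A ⊔ conjBy C b) ⊔ (conjBy A b ⊔ C)) r =
      (A ⊔ conjBy C b) ⊔ (conjBy A b ⊔ C)) ∧
    ((A ⊔ conjBy C b) ⊔ (conjBy A b ⊔ C)) ⊔ B = A ⊔ B ⊔ C ∧
    Group.IsNilpotent ↥(A ⊔ B ⊔ C) := by
  have hCB := rootCommutatorCase_symm hBC
  have hCA : ⁅C, A⁆ = ⊥ := by rw [Subgroup.commutator_comm]; exact hAC
  have hAb : conjBy A b ∈ S := hS.conj_mem A hA b
  have hCb : conjBy C b ∈ S := hS.conj_mem C hC b
  have hAA := member_commutator_self hS hA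
  have hCC := member_commutator_self hS hC
  have hBB := member_commutator_self hS hB
  have hAAb := member_commutator_self hS hAb
  have hCCb := member_commutator_self hS hCb
  -- `X` and `Y` commute
  have hU1 := rcc_sup_commutator_comm hS hA hAB
  have hU2 := rcc_sup_commutator_comm hS hC hCB
  have c1 : ⁅A, conjBy A b⁆ = ⊥ :=
    le_bot_iff.1 ((Subgroup.commutator_mono le_sup_left (conjBy_le_sup_commutator hb)).trans hU1.le)
  have c2 : ⁅conjBy C b, C⁆ = ⊥ :=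
    le_bot_iff.1 ((Subgroup.commutator_mono (conjBy_le_sup_commutator hb) le_sup_left).trans hU2.le)
  have c3 : ⁅conjBy C b, conjBy A b⁆ = ⊥ := commutator_conjBy_eq_bot_iff.2 hCA
  have hXY : ⁅A ⊔ conjBy C b, conjBy A b ⊔ C⁆ = ⊥ := comm_sup (comm_sup' c1 c3) (comm_sup' hAC c2)
  -- the product
  have hN : (A ⊔ conjBy C b) ⊔ (conjBy A b ⊔ C) = (A ⊔ ⁅A, B⁆) ⊔ (C ⊔ ⁅C, B⁆) := by
    rw [← rcc_sup_conj hAB hb hb1, ← rcc_sup_conj hCB hb hb1]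
    simp only [sup_assoc]
    congr 1
    rw [sup_left_comm, sup_comm (conjBy C b) C]
  have hPle : ⁅A, B⁆ ≤ A ⊔ B ⊔ C := (Subgroup.commutator_le_sup A B).trans le_sup_left
  have hQle : ⁅C, B⁆ ≤ A ⊔ B ⊔ C := (Subgroup.commutator_le_sup C B).trans
    (sup_le le_sup_right (le_sup_right.trans le_sup_left))
  have hAle : A ≤ A ⊔ B ⊔ C := le_sup_left.trans le_sup_left
  have hBle : B ≤ A ⊔ B ⊔ C := le_sup_right.trans le_sup_left
  have hCle : C ≤ A ⊔ B ⊔ C := le_sup_right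
  have hNB : ((A ⊔ ⁅A, B⁆) ⊔ (C ⊔ ⁅C, B⁆)) ⊔ B = A ⊔ B ⊔ C := by
    apply le_antisymm
    · exact sup_le (sup_le (sup_le hAle hPle) (sup_le hCle hQle)) hBle
    · refine sup_le (sup_le ?_ le_sup_right) ?_
      · exact le_sup_left.trans (le_sup_left.trans le_sup_left)
      · exact le_sup_left.trans (le_sup_right.trans le_sup_left)
  have hBN : B ≤ Subgroup.normalizer (((A ⊔ ⁅A, B⁆) ⊔ (C ⊔ ⁅C, B⁆) : Subgroup G) : Set G) :=
    normalizer_sup (le_normalizer_of_conjBy fun c hc => rcc_conjBy_sup hAB hc)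
      (le_normalizer_of_conjBy fun c hc => rcc_conjBy_sup hCB hc)
  have hRN : A ⊔ B ⊔ C ≤ Subgroup.normalizer (((A ⊔ ⁅A, B⁆) ⊔ (C ⊔ ⁅C, B⁆) : Subgroup G) : Set G) := by
    rw [← hNB]
    exact sup_le Subgroup.le_normalizer hBN
  -- dichotomy
  have hdich : ((IsMulCommutative ↥(A ⊔ conjBy C b) ∧ IsMulCommutative ↥(conjBy A b ⊔ C)) ∨
      ((¬ IsMulCommutative ↥(A ⊔ conjBy C b) ∧
          ⁅⁅A ⊔ conjBy C b, A ⊔ conjBy C b⁆, A ⊔ conjBy C b⁆ = ⊥) ∧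
        (¬ IsMulCommutative ↥(conjBy A b ⊔ C) ∧
          ⁅⁅conjBy A b ⊔ C, conjBy A b ⊔ C⁆, conjBy A b ⊔ C⁆ = ⊥))) := by
    have hiff : ⁅A, conjBy C b⁆ = ⊥ ↔ ⁅conjBy A b, C⁆ = ⊥ := by
      constructor
      · exact chain_comm hBC hAC hb hb1
      · intro h
        have h1 := chain_comm (A := C) (C := A) (rootCommutatorCase_symm hAB) hCA hb hb1
          (by rw [Subgroup.commutator_comm]; exact h)
        rw [Subgroup.commutator_comm]; exact h1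
    by_cases h1 : ⁅A, conjBy C b⁆ = ⊥
    · left
      have h2 := hiff.1 h1
      constructor
      · rw [← Subgroup.commutator_self_eq_bot_iff]
        exact comm_sup (comm_sup' hAA (by rw [Subgroup.commutator_comm]; exact h1)) (comm_sup' h1 hCCb)
      · rw [← Subgroup.commutator_self_eq_bot_iff]
        exact comm_sup (comm_sup' hAAb (by rw [Subgroup.commutator_comm]; exact h2)) (comm_sup' h2 hCC)
    · right
      have h2 : ⁅conjBy A b, C⁆ ≠ ⊥ := fun h => h1 (hiff.2 h)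
      have h3 : RootCommutatorCase S A (conjBy C b) := by
        rcases hS.pair A hA _ hCb with h3 | h3 | h3
        · exact absurd h3 h1
        · exact absurd h3 (chain_not_rankOne hS hA hC hAB hAC hb hb1)
        · exact h3
      have h4 : RootCommutatorCase S (conjBy A b) C := by
        rcases hS.pair _ hAb C hC with h4 | h4 | h4
        · exact absurd h4 h2
        · exact absurd (RankOnePair_symm h4) (chain_not_rankOne hS hC hA hCB hCA hb hb1)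
        · exact h4
      refine ⟨⟨?_, rcc_class_two hS hA hCb h3⟩, ⟨?_, rcc_class_two hS hAb hC h4⟩⟩
      · intro h5
        rw [← Subgroup.commutator_self_eq_bot_iff] at h5
        exact h1 (le_bot_iff.1 ((Subgroup.commutator_mono le_sup_left le_sup_right).trans h5.le))
      · intro h5
        rw [← Subgroup.commutator_self_eq_bot_iff] at h5
        exact h2 (le_bot_iff.1 ((Subgroup.commutator_mono le_sup_left le_sup_right).trans h5.le))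
  -- class two
  have hX2 : ⁅⁅A ⊔ conjBy C b, A ⊔ conjBy C b⁆, A ⊔ conjBy C b⁆ = ⊥ ∧
      ⁅⁅conjBy A b ⊔ C, conjBy A b ⊔ C⁆, conjBy A b ⊔ C⁆ = ⊥ := by
    rcases hdich with ⟨h1, h2⟩ | ⟨⟨-, h1⟩, ⟨-, h2⟩⟩
    · rw [← Subgroup.commutator_self_eq_bot_iff] at h1 h2
      rw [h1, h2]
      exact ⟨Subgroup.commutator_bot_left _, Subgroup.commutator_bot_left _⟩
    · exact ⟨h1, h2⟩
  refine ⟨hdich, hXY, ?_, by rw [hN]; exact hNB, ?_⟩
  · intro r hr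
    rw [hN]
    exact mem_normalizer_iff_conjBy.1 (hRN hr)
  -- nilpotency
  have hN2 := class_two_sup hXY hX2.1 hX2.2
  rw [hN] at hN2
  set N := (A ⊔ ⁅A, B⁆) ⊔ (C ⊔ ⁅C, B⁆) with hNdef
  set P := ⁅A, B⁆ with hPdef
  set Q := ⁅C, B⁆ with hQdef
  have hcN := commutator_eq_bot_iff_forall.1 hN2
  have hPN : P ≤ N := le_sup_right.trans le_sup_left
  have hQN : Q ≤ N := le_sup_right.trans le_sup_right
  have hAN : A ≤ N := le_sup_left.trans le_sup_left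
  have hCN : C ≤ N := le_sup_left.trans le_sup_right
  have hNN : ⁅N, N⁆ ≤ N := Subgroup.commutator_le_self N
  have hPB : ⁅P, B⁆ = ⊥ := commutator_eq_bot_iff_forall.2 fun c hc b hb => rcc_comm_right hAB hc hb
  have hQB : ⁅Q, B⁆ = ⊥ := commutator_eq_bot_iff_forall.2 fun c hc b hb => rcc_comm_right hCB hc hb
  have nP : B ≤ Subgroup.normalizer (P : Set G) := le_normalizer_of_comm fun b hb c hc =>
    (rcc_comm_right hAB hc hb).symm
  have nQ : B ≤ Subgroup.normalizer (Q : Set G) := le_normalizer_of_comm fun b hb c hc =>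
    (rcc_comm_right hCB hc hb).symm
  have nN2 : B ≤ Subgroup.normalizer ((⁅N, N⁆ : Subgroup G) : Set G) := normalizer_commutator hBN hBN
  have nN2' : N ≤ Subgroup.normalizer ((⁅N, N⁆ : Subgroup G) : Set G) := Subgroup.normalizer_commutator_ge_left N N
  -- K1 = P Q [N,N]
  have hK1N : P ⊔ Q ⊔ ⁅N, N⁆ ≤ N := sup_le (sup_le hPN hQN) hNN
  have nK1B : B ≤ Subgroup.normalizer ((P ⊔ Q ⊔ ⁅N, N⁆ : Subgroup G) : Set G) :=
    normalizer_sup (normalizer_sup nP nQ) nN2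
  have nK1N : N ≤ Subgroup.normalizer ((P ⊔ Q ⊔ ⁅N, N⁆ : Subgroup G) : Set G) := by
    rw [Subgroup.le_normalizer_iff_commutator_le_right]
    exact (Subgroup.commutator_mono le_rfl hK1N).trans le_sup_right
  -- K3 = [P, Q]
  have hK3N : ⁅P, Q⁆ ≤ ⁅N, N⁆ := Subgroup.commutator_mono hPN hQN
  have nK3N : N ≤ Subgroup.normalizer ((⁅P, Q⁆ : Subgroup G) : Set G) :=
    le_normalizer_of_comm fun n hn k hk => (hcN k (hK3N hk) n hn).symm
  have nK3B : B ≤ Subgroup.normalizer ((⁅P, Q⁆ : Subgroup G) : Set G) := normalizer_commutator nP nQ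
  have hK3B : ⁅⁅P, Q⁆, B⁆ = ⊥ := by
    rw [commutator_eq_bot_iff_forall]
    intro k hk c hc
    have h1 : ⁅P, Q⁆ ≤ Subgroup.centralizer ({c} : Set G) := by
      rw [Subgroup.commutator_le]
      intro p hp q hq
      rw [commutatorElement_def, Subgroup.mem_centralizer_iff]
      intro y hy
      have hy' : y = c := hy
      rw [hy']
      have h2 : Commute c p := (rcc_comm_right hAB hp hc).symm
      have h3 : Commute c q := (rcc_comm_right hCB hq hc).symm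
      exact ((h2.mul_right h3).mul_right h2.inv_right).mul_right h3.inv_right
    exact (Subgroup.mem_centralizer_iff.1 (h1 hk) c rfl).symm
  -- the computation `[[U, V], B] ≤ K3`
  have hstep : ∀ (U V W : Subgroup G), U ≤ N → V ≤ N → W ≤ N → (∀ u ∈ U, ∀ c ∈ B, u * c = c * u) →
      (∀ v ∈ V, ∀ c ∈ B, c * v * c⁻¹ * v⁻¹ ∈ W) → ⁅U, W⁆ ≤ ⁅P, Q⁆ → ⁅⁅U, V⁆, B⁆ ≤ ⁅P, Q⁆ := by
    intro U V W hU hV hW hUB hVB hUW
    have hUV : ⁅U, V⁆ ≤ ⁅N, N⁆ := Subgroup.commutator_mono hU hV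
    let M : Subgroup G :=
      { carrier := {r | r ∈ ⁅N, N⁆ ∧ ∀ c ∈ B, r * c * r⁻¹ * c⁻¹ ∈ ⁅P, Q⁆}
        one_mem' := ⟨Subgroup.one_mem _, fun x _ => by simp⟩
        mul_mem' := by
          rintro r s ⟨hr, hr'⟩ ⟨hs, hs'⟩
          refine ⟨Subgroup.mul_mem _ hr hs, fun c hc => ?_⟩
          have h3 : (r * s) * c * (r * s)⁻¹ * c⁻¹ = (r * (s * c * s⁻¹ * c⁻¹) * r⁻¹) * (r * c * r⁻¹ * c⁻¹) := by
            simp [mul_assoc]
          rw [h3]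
          exact Subgroup.mul_mem _ ((Subgroup.mem_normalizer_iff.1 (nK3N (hNN hr)) _).1 (hs' c hc)) (hr' c hc)
        inv_mem' := by
          rintro r ⟨hr, hr'⟩
          refine ⟨Subgroup.inv_mem _ hr, fun c hc => ?_⟩
          have h3 : r⁻¹ * c * r⁻¹⁻¹ * c⁻¹ = r⁻¹ * (r * c * r⁻¹ * c⁻¹)⁻¹ * r⁻¹⁻¹ := by
            simp [mul_assoc]
          rw [h3]
          exact (Subgroup.mem_normalizer_iff.1 (nK3N (hNN (Subgroup.inv_mem _ hr))) _).1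
            (Subgroup.inv_mem _ (hr' c hc)) }
    have hM : ⁅U, V⁆ ≤ M := by
      rw [Subgroup.commutator_le]
      intro u hu v hv
      refine ⟨hUV (Subgroup.commutator_mem_commutator hu hv), fun c hc => ?_⟩
      rw [commutatorElement_def]
      -- c [u,v] c⁻¹ = [u, w v] with w = c v c⁻¹ v⁻¹
      have hw := hVB v hv c hc
      have hu' := hUB u hu c hc
      have huw : u * (c * v * c⁻¹ * v⁻¹) * u⁻¹ * (c * v * c⁻¹ * v⁻¹)⁻¹ ∈ ⁅P, Q⁆ := hUW (comm_mem hu hw)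
      have hcen : ∀ n ∈ N, (u * v * u⁻¹ * v⁻¹) * n = n * (u * v * u⁻¹ * v⁻¹) := fun n hn =>
        hcN _ (hUV (comm_mem hu hv)) n hn
      set w := c * v * c⁻¹ * v⁻¹ with hwdef
      have hcv : c * v * c⁻¹ = w * v := by rw [hwdef]; simp [mul_assoc]
      have hcu : c * u * c⁻¹ = u := by rw [← hu']; simp
      have hcu' : c * u⁻¹ * c⁻¹ = u⁻¹ := by
        have := congrArg (fun x => x⁻¹) hcu
        simpa [mul_assoc] using this
      have hcv' : c * v⁻¹ * c⁻¹ = v⁻¹ * w⁻¹ := by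
        have := congrArg (fun x => x⁻¹) hcv
        simpa [mul_assoc] using this
      have h5 : c * (u * v * u⁻¹ * v⁻¹) * c⁻¹ = (u * w * u⁻¹ * w⁻¹) * (u * v * u⁻¹ * v⁻¹) := by
        calc c * (u * v * u⁻¹ * v⁻¹) * c⁻¹
            = (c * u * c⁻¹) * (c * v * c⁻¹) * (c * u⁻¹ * c⁻¹) * (c * v⁻¹ * c⁻¹) := by simp [mul_assoc]
          _ = u * (w * v) * u⁻¹ * (v⁻¹ * w⁻¹) := by rw [hcu, hcv, hcu', hcv']
          _ = (u * w * u⁻¹) * ((u * v * u⁻¹ * v⁻¹) * w⁻¹) := by simp [mul_assoc]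
          _ = (u * w * u⁻¹) * (w⁻¹ * (u * v * u⁻¹ * v⁻¹)) := by rw [hcen _ (N.inv_mem (hW hw))]
          _ = (u * w * u⁻¹ * w⁻¹) * (u * v * u⁻¹ * v⁻¹) := by simp [mul_assoc]
      have h6 : (u * v * u⁻¹ * v⁻¹) * c * (u * v * u⁻¹ * v⁻¹)⁻¹ * c⁻¹ =
          (u * v * u⁻¹ * v⁻¹) * (c * (u * v * u⁻¹ * v⁻¹) * c⁻¹)⁻¹ := by simp [mul_assoc]
      rw [h6, h5, mul_inv_rev, mul_inv_cancel_left]
      exact Subgroup.inv_mem _ huw
    rw [Subgroup.commutator_le]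
    intro r hr c hc
    rw [commutatorElement_def]
    exact (hM hr).2 c hc
  -- `[[N,N],B] ≤ [P,Q]`
  have hK2 : ⁅⁅N, N⁆, B⁆ ≤ ⁅P, Q⁆ := by
    -- [N,N] is generated by [A,Q], [P,C], [P,Q]
    have hgen : ⁅N, N⁆ ≤ ⁅Q, A⁆ ⊔ ⁅P, C⁆ ⊔ ⁅P, Q⁆ := by
      have hle : ⁅Q, A⁆ ⊔ ⁅P, C⁆ ⊔ ⁅P, Q⁆ ≤ ⁅N, N⁆ :=
        sup_le (sup_le (Subgroup.commutator_mono hQN hAN) (Subgroup.commutator_mono hPN hCN)) hK3N
      have hn : ∀ U : Subgroup G, U ≤ N →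
          U ≤ Subgroup.normalizer ((⁅Q, A⁆ ⊔ ⁅P, C⁆ ⊔ ⁅P, Q⁆ : Subgroup G) : Set G) := fun U hU =>
        le_normalizer_of_comm fun n hn k hk => (hcN k (hle hk) n (hU hn)).symm
      have z : ∀ U V : Subgroup G, ⁅U, V⁆ = ⊥ → ⁅U, V⁆ ≤ ⁅Q, A⁆ ⊔ ⁅P, C⁆ ⊔ ⁅P, Q⁆ := fun U V h =>
        h.le.trans bot_le
      have sw : ∀ U V : Subgroup G, ⁅U, V⁆ ≤ ⁅Q, A⁆ ⊔ ⁅P, C⁆ ⊔ ⁅P, Q⁆ → ⁅V, U⁆ ≤ ⁅Q, A⁆ ⊔ ⁅P, C⁆ ⊔ ⁅P, Q⁆ :=
        fun U V h => by rw [Subgroup.commutator_comm]; exact h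
      have hAP : ⁅A, P⁆ = ⊥ := commutator_eq_bot_iff_forall.2 fun a ha c hc => (rcc_comm_left hAB hc ha).symm
      have hCQ : ⁅C, Q⁆ = ⊥ := commutator_eq_bot_iff_forall.2 fun a ha c hc => (rcc_comm_left hCB hc ha).symm
      have hPP : ⁅P, P⁆ = ⊥ := commutator_eq_bot_iff_forall.2 fun a ha c hc => rcc_comm_self hAB ha hc
      have hQQ : ⁅Q, Q⁆ = ⊥ := commutator_eq_bot_iff_forall.2 fun a ha c hc => rcc_comm_self hCB ha hc
      have e1 : ⁅Q, A⁆ ≤ ⁅Q, A⁆ ⊔ ⁅P, C⁆ ⊔ ⁅P, Q⁆ := le_sup_left.trans le_sup_left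
      have e2 : ⁅P, C⁆ ≤ ⁅Q, A⁆ ⊔ ⁅P, C⁆ ⊔ ⁅P, Q⁆ := le_sup_right.trans le_sup_left
      have e3 : ⁅P, Q⁆ ≤ ⁅Q, A⁆ ⊔ ⁅P, C⁆ ⊔ ⁅P, Q⁆ := le_sup_right
      have row : ∀ U : Subgroup G, ⁅U, A⁆ ≤ ⁅Q, A⁆ ⊔ ⁅P, C⁆ ⊔ ⁅P, Q⁆ → ⁅U, P⁆ ≤ ⁅Q, A⁆ ⊔ ⁅P, C⁆ ⊔ ⁅P, Q⁆ →
          ⁅U, C⁆ ≤ ⁅Q, A⁆ ⊔ ⁅P, C⁆ ⊔ ⁅P, Q⁆ → ⁅U, Q⁆ ≤ ⁅Q, A⁆ ⊔ ⁅P, C⁆ ⊔ ⁅P, Q⁆ →
          ⁅N, U⁆ ≤ ⁅Q, A⁆ ⊔ ⁅P, C⁆ ⊔ ⁅P, Q⁆ := by
        intro U h1 h2 h3 h4
        refine sw _ _ ?_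
        exact commutator_sup_le (commutator_sup_le h1 h2 (hn A hAN) (hn P hPN))
          (commutator_sup_le h3 h4 (hn C hCN) (hn Q hQN)) (hn _ le_sup_left) (hn _ le_sup_right)
      refine commutator_sup_le (commutator_sup_le ?_ ?_ (hn A hAN) (hn P hPN))
          (commutator_sup_le ?_ ?_ (hn C hCN) (hn Q hQN)) (hn _ le_sup_left) (hn _ le_sup_right)
      · exact row A (z _ _ hAA) (z _ _ hAP) (z _ _ hAC) (sw _ _ e1)
      · exact row P (sw _ _ (z _ _ hAP)) (z _ _ hPP) e2 e3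
      · exact row C (sw _ _ (z _ _ hAC)) (sw _ _ e2) (z _ _ hCC) (z _ _ hCQ)
      · exact row Q e1 (sw _ _ e3) (sw _ _ (z _ _ hCQ)) (z _ _ hQQ)
    have hn : ∀ U : Subgroup G, U ≤ N → U ≤ Subgroup.normalizer ((⁅P, Q⁆ : Subgroup G) : Set G) := fun U hU =>
      hU.trans nK3N
    refine (Subgroup.commutator_mono hgen le_rfl).trans ?_
    have k1 : ⁅Q, A⁆ ≤ N := (Subgroup.commutator_mono hQN hAN).trans hNN
    have k2 : ⁅P, C⁆ ≤ N := (Subgroup.commutator_mono hPN hCN).trans hNN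
    have k3 : ⁅P, Q⁆ ≤ N := hK3N.trans hNN
    refine commutator_sup_le' (commutator_sup_le' ?_ ?_ (hn _ k1) (hn _ k2)) (hK3B.le.trans bot_le)
      (hn _ (sup_le k1 k2)) (hn _ k3)
    · refine hstep Q A P hQN hAN hPN (fun u hu c hc => rcc_comm_right hCB hu hc) ?_ ?_
      · intro a ha c hc
        rw [hPdef, Subgroup.commutator_comm]
        exact comm_mem hc ha
      · rw [Subgroup.commutator_comm]
    · refine hstep P C Q hPN hCN hQN (fun u hu c hc => rcc_comm_right hAB hu hc) ?_ le_rfl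
      intro a ha c hc
      rw [hQdef, Subgroup.commutator_comm]
      exact comm_mem hc ha
  -- assemble
  let K : ℕ → Subgroup G := fun n => match n with
    | 0 => A ⊔ B ⊔ C
    | 1 => P ⊔ Q ⊔ ⁅N, N⁆
    | 2 => ⁅N, N⁆
    | 3 => ⁅P, Q⁆
    | _ => ⊥
  refine isNilpotent_of_chain K le_rfl ?_ 4 rfl
  have hn0 : ∀ U : Subgroup G, U ≤ Subgroup.normalizer ((⊥ : Subgroup G) : Set G) := fun A =>
    le_normalizer_of_conjBy fun a _ => conjBy_bot a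
  intro n
  match n with
  | 0 =>
    show ⁅A ⊔ B ⊔ C, A ⊔ B ⊔ C⁆ ≤ P ⊔ Q ⊔ ⁅N, N⁆
    rw [← hNB]
    have f1 : ⁅N, B⁆ ≤ P ⊔ Q ⊔ ⁅N, N⁆ := by
      refine commutator_sup_le' (commutator_sup_le' ?_ (hPB.le.trans bot_le) (hAN.trans nK1N) (hPN.trans nK1N))
        (commutator_sup_le' ?_ (hQB.le.trans bot_le) (hCN.trans nK1N) (hQN.trans nK1N))
        (le_sup_left.trans nK1N) (le_sup_right.trans nK1N)
      · exact le_sup_left.trans le_sup_left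
      · exact le_sup_right.trans le_sup_left
    refine commutator_sup_le (commutator_sup_le' le_sup_right ?_ nK1N nK1B)
      (commutator_sup_le' f1 (hBB.le.trans bot_le) nK1N nK1B) nK1N nK1B
    rw [Subgroup.commutator_comm]; exact f1
  | 1 =>
    show ⁅P ⊔ Q ⊔ ⁅N, N⁆, A ⊔ B ⊔ C⁆ ≤ ⁅N, N⁆
    rw [← hNB]
    refine commutator_sup_le (Subgroup.commutator_mono hK1N le_rfl) ?_ nN2' nN2
    refine commutator_sup_le' (commutator_sup_le' (hPB.le.trans bot_le) (hQB.le.trans bot_le) (hPN.trans nN2')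
      (hQN.trans nN2')) ?_ ((sup_le hPN hQN).trans nN2') (hNN.trans nN2')
    exact hK2.trans hK3N
  | 2 =>
    show ⁅⁅N, N⁆, A ⊔ B ⊔ C⁆ ≤ ⁅P, Q⁆
    rw [← hNB]
    exact commutator_sup_le (hN2.le.trans bot_le) hK2 nK3N nK3B
  | 3 =>
    show ⁅⁅P, Q⁆, A ⊔ B ⊔ C⁆ ≤ ⊥
    rw [← hNB]
    refine commutator_sup_le ?_ hK3B.le (hn0 _) (hn0 _)
    exact (Subgroup.commutator_mono hK3N le_rfl).trans hN2.le
  | (n + 4) =>
    show ⁅(⊥ : Subgroup G), A ⊔ B ⊔ C⁆ ≤ ⊥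
    exact (Subgroup.commutator_bot_left _).le

end chain

end Cfsg.Agent.H733
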