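import Mathlib
import Cfsg.Agent.H733.RootNd2
import Cfsg.Agent.H737.RootNormal

/-!
# Root involutions: the graph `𝓔(D)` of a nondegenerate class
-/

set_option autoImplicit false

namespace Cfsg.Agent.H733

open Cfsg Cfsg.Agent.H737

universe u

section

variable {G : Type*} [Group G] {D : Set G}

theorem prodAdj_symm {a b : G} (h : ProdAdj D a b) : ProdAdj D b a :=
  ⟨h.2.1, h.1, h.2.2.1.symm, h.2.2.2.1.symm, by rw [← h.2.2.2.1]; exact h.2.2.2.2⟩

theorem prodAdj_iff {a b : G} : ProdAdj D a b ↔ a ∈ D ∧ b ∈ productPartners D a := by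
  rw [mem_productPartners]
  constructor
  · rintro ⟨h1, h2, h3, h4, h5⟩
    exact ⟨h1, h2, h4, h3, h5⟩
  · rintro ⟨h1, h2, h4, h3, h5⟩
    exact ⟨h1, h2, h3, h4, h5⟩

theorem prodAdj_conj (h : IsRootInvolutionSet D) (g : G) {a b : G} (hab : ProdAdj D a b) :
    ProdAdj D (g * a * g⁻¹) (g * b * g⁻¹) := by
  obtain ⟨h1, h2, h3, h4, h5⟩ := hab
  refine ⟨h.conj_mem a h1 g, h.conj_mem b h2 g, fun h6 => h3 ?_, ?_, ?_⟩
  · simpa using h6
  · calc g * a * g⁻¹ * (g * b * g⁻¹) = g * (a * b) * g⁻¹ := by group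
      _ = g * (b * a) * g⁻¹ := by rw [h4]
      _ = _ := by group
  · have : g * a * g⁻¹ * (g * b * g⁻¹) = g * (a * b) * g⁻¹ := by group
    rw [this]
    exact h.conj_mem _ h5 g

/-- `a` and `b` are joined in `𝓔(D)`. -/
abbrev EC (D : Set G) (a b : G) : Prop := Relation.ReflTransGen (ProdAdj D) a b

theorem EC.symm' {a b : G} (h : EC D a b) : EC D b a :=
  rtg_symm (fun _ _ h => prodAdj_symm h) h

theorem ec_mem {a b : G} (ha : a ∈ D) (h : EC D a b) : b ∈ D := by
  rcases Relation.ReflTransGen.cases_tail h with h1 | ⟨c, _, h1⟩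
  · rw [h1]; exact ha
  · exact h1.2.1

theorem ec_of_order_four (h : IsRootInvolutionSet D) {a b : G} (ha : a ∈ D) (hb : b ∈ D)
    (h4 : orderOf (a * b) = 4) : EC D a b := by
  obtain ⟨h1, h2⟩ := order_four_partner h ha hb h4
  exact (Relation.ReflTransGen.single (prodAdj_iff.2 ⟨ha, h1⟩)).tail
    (prodAdj_symm (prodAdj_iff.2 ⟨hb, h2⟩))

theorem comm_or_opp_of_not_ec (h : IsRootInvolutionSet D) {a b : G} (ha : a ∈ D) (hb : b ∈ D)
    (hn : ¬ EC D a b) : Commute a b ∨ Opp a b := by
  rcases opp_trichotomy h ha hb with h1 | h1 | h1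
  · exact Or.inl h1
  · exact Or.inr h1
  · exact absurd (ec_of_order_four h ha hb h1.1) hn

/-- Opposition spreads over `𝓔`-components. -/
theorem opp_spread (h : IsRootInvolutionSet D) {a a' v : G} (hv : v ∈ D)
    (hne : ¬ EC D a v) (hav : Opp a v) (haa : EC D a a') : Opp a' v := by
  induction haa with
  | refl => exact hav
  | @tail y z hy hyz ih =>
    have hnzv : ¬ EC D z v := fun h1 => hne ((hy.tail hyz).trans h1)
    have hnc : ¬ Commute z v := by
      intro h1
      exact not_commute_of_opp h hyz.1 hyz.2.1 hyz.2.2.2.1 hyz.2.2.2.2 hv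
        (Opp.symm' h hyz.1 hv ih) h1.symm
    exact (comm_or_opp_of_not_ec h hyz.2.1 hv hnzv).resolve_left hnc

theorem comm_spread (h : IsRootInvolutionSet D) {a a' v : G} (ha : a ∈ D) (hv : v ∈ D)
    (hne : ¬ EC D a v) (hav : Commute a v) (haa : EC D a a') : Commute a' v := by
  have ha' := ec_mem ha haa
  have hne' : ¬ EC D a' v := fun h1 => hne (haa.trans h1)
  rcases comm_or_opp_of_not_ec h ha' hv hne' with h1 | h1
  · exact h1
  · exact absurd hav ((opp_spread h hv hne' h1 haa.symm').ncomm h ha hv)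

end

/-- Two involutions never have product of order 4. -/
def NoFour (Q : Type*) [Group Q] : Prop :=
  ∀ u w : Q, u * u = 1 → w * w = 1 → (u * w) ^ 4 = 1 → (u * w) ^ 2 = 1

/-- The generation step in a minimal counterexample. -/
theorem gen_top {G : Type u} [Group G] [Finite G] {D : Set G}
    (IH : ∀ (K : Type u) [Group K] [Finite K] (D' : Set K), Nat.card K < Nat.card G →
      IsNondegenerateRootInvolutionSet D' → IsRootInvolutionClass D' →
      IsConnectedSet (ProdAdj D') D')
    (hnd : IsNondegenerateRootInvolutionSet D) (hcl : IsRootInvolutionClass D)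
    (hc : IsConnectedSet (OddAdj D) D)
    {a v : G} (ha : a ∈ D) (hv : v ∈ D) (hav : Opp a v) (hne : ¬ EC D a v) :
    Subgroup.closure ({y | y ∈ D ∧ EC D a y} ∪ {v}) = ⊤ := by
  have h := hnd.1
  obtain ⟨S, hS⟩ : ∃ S : Set G, S = {y | y ∈ D ∧ EC D a y} ∪ {v} := ⟨_, rfl⟩
  rw [← hS]
  have hSD : S ⊆ D := by
    rw [hS]
    rintro y (hy | hy)
    · exact hy.1
    · rw [Set.mem_singleton_iff] at hy; rw [hy]; exact hv
  have hES : ∀ y, EC D a y → y ∈ Subgroup.closure S := fun y hy =>
    Subgroup.subset_closure (by rw [hS]; exact Or.inl ⟨ec_mem ha hy, hy⟩)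
  have haS : a ∈ Subgroup.closure S := hES a Relation.ReflTransGen.refl
  have hvS : v ∈ Subgroup.closure S := Subgroup.subset_closure (by rw [hS]; exact Or.inr rfl)
  have claim1 : ∀ y, EC D a y → ∃ g ∈ Subgroup.closure S, g * a * g⁻¹ = y := by
    intro y hy
    induction hy with
    | refl => exact ⟨1, one_mem _, by group⟩
    | @tail y z hy hyz ih =>
      obtain ⟨g, hg, hgy⟩ := ih
      have hyv : Opp y v := opp_spread h hv hne hav hy
      obtain ⟨k, hk, hkz⟩ := partner_conj h hc hyz.1 hv (Opp.symm' h hyz.1 hv hyv)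
        (prodAdj_iff.1 hyz).2
      have hle : Subgroup.closure (productPartners D y ∪ {v}) ≤ Subgroup.closure S := by
        rw [Subgroup.closure_le]
        rintro w (hw | hw)
        · exact hES w (hy.tail (prodAdj_iff.2 ⟨hyz.1, hw⟩))
        · rw [Set.mem_singleton_iff] at hw; rw [hw]; exact hvS
      refine ⟨k * g, mul_mem (hle hk) hg, ?_⟩
      rw [← hkz, ← hgy]; group
  let a' : ↥(Subgroup.closure S) := ⟨a, haS⟩
  let v' : ↥(Subgroup.closure S) := ⟨v, hvS⟩
  have hav' : Opp a' v' := opp_coe.1 hav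
  obtain ⟨D', hD'⟩ : ∃ D' : Set ↥(Subgroup.closure S), D' = {y | ∃ g, y = g * a' * g⁻¹} :=
    ⟨_, rfl⟩
  have hmem : ∀ y, y ∈ D' ↔ ∃ g, y = g * a' * g⁻¹ := by intro y; rw [hD']; rfl
  have hmemD : ∀ y ∈ D', (y : G) ∈ D := by
    intro y hy
    obtain ⟨g, hg⟩ := (hmem y).1 hy
    rw [hg]
    exact h.conj_mem a ha g
  have hE' : ∀ y (hy : EC D a y), (⟨y, hES y hy⟩ : ↥(Subgroup.closure S)) ∈ D' := by
    intro y hy
    obtain ⟨g, hg, hgy⟩ := claim1 y hy
    exact (hmem _).2 ⟨⟨g, hg⟩, Subtype.ext hgy.symm⟩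
  have ha' : a' ∈ D' := (hmem _).2 ⟨1, by group⟩
  have hv' : v' ∈ D' := by
    have h1 : a' * a' = 1 := Subtype.ext (sq_of_mem h ha)
    have h2 : v' * v' = 1 := Subtype.ext (sq_of_mem h hv)
    obtain ⟨g, hg⟩ := Opp.exists_conj h1 h2 hav'
    exact (hmem _).2 ⟨g, hg.symm⟩
  have hconj' : ∀ d ∈ D', ∀ g, g * d * g⁻¹ ∈ D' := by
    intro d hd g
    obtain ⟨k, hk⟩ := (hmem d).1 hd
    refine (hmem _).2 ⟨g * k, ?_⟩
    rw [hk]; group
  -- `D'` is a class of root involutions
  have hroot' : IsRootInvolutionSet D' := by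
    refine ⟨?_, ?_, hconj', ?_⟩
    · intro d hd
      rw [← Subgroup.orderOf_coe]
      exact h.orderOf_eq _ (hmemD d hd)
    · rw [eq_top_iff]
      rintro ⟨y, hy⟩ -
      induction hy using Subgroup.closure_induction with
      | mem x hx =>
        apply Subgroup.subset_closure
        have hx2 := hx
        rw [hS] at hx2
        rcases hx2 with hx2 | hx2
        · exact hE' x hx2.2
        · rw [Set.mem_singleton_iff] at hx2
          subst hx2
          exact hv'
      | one => exact one_mem _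
      | mul x y hx hy ihx ihy => exact mul_mem ihx ihy
      | inv x hx ihx => exact inv_mem ihx
    · intro p hp q hq
      have hpD := hmemD p hp
      have hqD := hmemD q hq
      rcases h.pair _ hpD _ hqD with h1 | h1 | h1
      · left; exact Subtype.ext h1
      · right; left
        rw [← Subgroup.orderOf_coe]
        exact h1
      · right; right
        refine ⟨by rw [← Subgroup.orderOf_coe]; exact h1.1, ?_⟩
        obtain ⟨g, hg⟩ := (hmem p).1 hp
        have h2 := (order_four_partner h hpD hqD h1.1).1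
        have h3 : ProdAdj D (p : G) ((p : G) * (q * (p * q))) := prodAdj_iff.2 ⟨hpD, h2⟩
        have h4 := prodAdj_conj h (g : G)⁻¹ h3
        have h5 : (g : G)⁻¹ * (p : G) * (g : G)⁻¹⁻¹ = a := by
          rw [hg]
          show (g : G)⁻¹ * ((g : G) * a * (g : G)⁻¹) * (g : G)⁻¹⁻¹ = a
          group
        rw [h5] at h4
        have h6 := hE' _ (Relation.ReflTransGen.single h4)
        have h7 := hconj' _ h6 g
        convert h7 using 1
        apply Subtype.ext
        show ((p : G) * q) ^ 2 = (g : G) * ((g : G)⁻¹ * ((p : G) * (q * (p * q))) * (g : G)⁻¹⁻¹) * (g : G)⁻¹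
        rw [pow_two]
        group
  have hcl' : IsRootInvolutionClass D' := by
    refine ⟨hroot', ⟨a', ha'⟩, ?_⟩
    intro p hp q hq
    obtain ⟨g, hg⟩ := (hmem p).1 hp
    obtain ⟨k, hk⟩ := (hmem q).1 hq
    refine ⟨k * g⁻¹, ?_⟩
    rw [hg, hk]; group
  -- a pair of order four containing `a`
  obtain ⟨q, hq, haq⟩ : ∃ q ∈ D, orderOf (a * q) = 4 := by
    obtain ⟨p, hp, q, hq, hpq⟩ := hnd.2.2.2
    obtain ⟨g, hg⟩ := hcl.2.2 p hp a ha
    refine ⟨g * q * g⁻¹, h.conj_mem q hq g, ?_⟩
    have : a * (g * q * g⁻¹) = g * (p * q) * g⁻¹ := by rw [hg]; group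
    rw [this, orderOf_conj', hpq]
  have hnd' : IsNondegenerateRootInvolutionSet D' := by
    refine ⟨hroot', ?_, ?_, ?_⟩
    · have h2 := (order_four_partner h ha hq haq).1
      have h3 : ProdAdj D a (a * (q * (a * q))) := prodAdj_iff.2 ⟨ha, h2⟩
      refine ⟨a', ha', _, hE' _ (Relation.ReflTransGen.single h3), ?_, ?_⟩
      · intro h4
        exact h3.2.2.1 (congrArg Subtype.val h4)
      · exact Subtype.ext h3.2.2.2.1
    · exact ⟨a', ha', v', hv', hav'.1, hav'.2⟩
    · refine ⟨a', ha', _, hE' q (ec_of_order_four h ha hq haq), ?_⟩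
      rw [← Subgroup.orderOf_coe]
      exact haq
  by_contra hlt
  have hcard : Nat.card ↥(Subgroup.closure S) < Nat.card G := by
    rcases lt_or_eq_of_le (Nat.le_of_dvd Nat.card_pos (Subgroup.card_subgroup_dvd_card
      (Subgroup.closure S))) with h1 | h1
    · exact h1
    · exact absurd (Subgroup.eq_top_of_card_eq _ h1) hlt
  have hcon := IH _ D' hcard hnd' hcl' a' ha' v' hv'
  apply hne
  exact hcon.lift (fun z : ↥(Subgroup.closure S) => (z : G)) (by
    intro x y hxy
    obtain ⟨h1, h2, h3, h4, h5⟩ := hxy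
    exact ⟨hmemD x h1, hmemD y h2, fun h6 => h3 (Subtype.ext h6), congrArg Subtype.val h4,
      hmemD _ h5⟩)

/-- `𝓔(D)` is connected in a minimal counterexample, case of connected commuting graph. -/
theorem prod_connected_of_comm {G : Type u} [Group G] [Finite G] {D : Set G}
    (IH : ∀ (K : Type u) [Group K] [Finite K] (D' : Set K), Nat.card K < Nat.card G →
      IsNondegenerateRootInvolutionSet D' → IsRootInvolutionClass D' →
      IsConnectedSet (ProdAdj D') D')
    (hnd : IsNondegenerateRootInvolutionSet D) (hcl : IsRootInvolutionClass D)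
    (hc : IsConnectedSet (OddAdj D) D) (hcomm : IsConnectedSet (CommAdj D) D)
    {a v : G} (ha : a ∈ D) (hv : v ∈ D) (hav : Opp a v) (hne : ¬ EC D a v) : False := by
  have h := hnd.1
  have key : ∀ y, Relation.ReflTransGen (CommAdj D) a y → y ∈ D ∧ (EC D a y ∨ Commute a y) := by
    intro y hy
    induction hy with
    | refl => exact ⟨ha, Or.inl Relation.ReflTransGen.refl⟩
    | @tail y z hy hyz ih =>
      obtain ⟨hyD, hzD, hyzne, hyzc⟩ := hyz
      refine ⟨hzD, ?_⟩
      by_contra hcon
      push Not at hcon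
      obtain ⟨hn1, hn2⟩ := hcon
      have haz : Opp a z := (comm_or_opp_of_not_ec h ha hzD hn1).resolve_left hn2
      by_cases h1 : EC D a y
      · have hn3 : ¬ EC D y z := fun h2 => hn1 (h1.trans h2)
        exact hn2 (comm_spread h hyD hzD hn3 hyzc h1.symm')
      · have h2 : Commute a y := ih.2.resolve_left h1
        by_cases h3 : EC D y z
        · have h4 : ¬ EC D y a := fun h5 => h1 h5.symm'
          exact hn2 (comm_spread h hyD ha h4 h2.symm h3).symm
        · -- `y` is central
          have htop := gen_top IH hnd hcl hc ha hzD haz hn1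
          have hcen : ∀ g : G, Commute y g := by
            intro g
            have hg : g ∈ Subgroup.closure ({y | y ∈ D ∧ EC D a y} ∪ {z}) := by
              rw [htop]; trivial
            induction hg using Subgroup.closure_induction with
            | mem w hw =>
              rcases hw with hw | hw
              · exact (comm_spread h ha hyD h1 h2 hw.2).symm
              · rw [Set.mem_singleton_iff] at hw; rw [hw]; exact hyzc
            | one => exact Commute.one_right y
            | mul p q _ _ hp hq => exact hp.mul_right hq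
            | inv p _ hp => exact hp.inv_right
          obtain ⟨g, hg⟩ := hcl.2.2 y hyD a ha
          apply h1
          have : a = y := by rw [hg, ← (hcen g).eq, mul_inv_cancel_right]
          rw [this]
  rcases (key v (hcomm a ha v hv)).2 with h1 | h1
  · exact hne h1
  · exact hav.ncomm h ha hv h1

/-- A quotient by `Z_*(G)` with the property `NoFour` is impossible. -/
theorem not_noFour_quotient {G : Type u} [Group G] [Finite G] {D : Set G}
    (hnd : IsNondegenerateRootInvolutionSet D)
    (hc : IsConnectedSet (OddAdj D) D) (hq : NoFour (G ⧸ twoZCore G)) : False := by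
  have h := hnd.1
  obtain ⟨-, -, ⟨a, ha, c, hcD, hac, hodd⟩, p, hp, q, hqD, hpq⟩ := hnd
  have hopp : Opp c a := Opp.symm' h ha hcD ⟨hac, hodd⟩
  have hnt : twoZCore G ≠ ⊤ := by
    intro h1
    apply mul_not_mem_twoZCore h ha hcD hopp
    rw [h1]; trivial
  have hpp := sq_of_mem h hp
  have hqq := sq_of_mem h hqD
  have ht : (p * q) ^ 2 ∈ D := by
    rw [pow_two]; exact mem_of_order_four h hp hqD hpq |> fun h1 => by simpa only [mul_assoc] using h1
  have h1 := hq (QuotientGroup.mk p) (QuotientGroup.mk q)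
    (by rw [← QuotientGroup.mk_mul, hpp]; rfl) (by rw [← QuotientGroup.mk_mul, hqq]; rfl)
    (by rw [← QuotientGroup.mk_mul, ← QuotientGroup.mk_pow, ← hpq, pow_orderOf_eq_one]; rfl)
  rw [← QuotientGroup.mk_mul, ← QuotientGroup.mk_pow, QuotientGroup.eq_one_iff] at h1
  exact not_mem_of_normal_ne_top h hc inferInstance hnt ht h1

end Cfsg.Agent.H733
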